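import Cfsg.Agent.H530.CY.Frame
import Cfsg.Agent.H769.CY.RThree
import Cfsg.Agent.H314.CY.Loc
import Cfsg.Agent.H477.HC.Rk3Chars

/-!
# S4829, polar spaces, `p ∣ Q - 1`: the row from a form with a frame (helper530)

`qAct` : the action of a quotient; `rowA_of_frm` : `RowA p S` for every odd `p ∣ |K| - 1`, `¬ p ∣ m`, `m + 1` the Witt
index.
-/

set_option autoImplicit false
set_option linter.unusedSectionVars false

open Cfsg Module MulAction Cfsg.Agent.H477.HC Cfsg.Agent.H477.HC.CForm Cfsg.Agent.H690.Spor.RankThree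
open Cfsg.Agent.H690.Spor.RankThree.R3 Cfsg.Agent.H770.CY

namespace Cfsg.Agent.H530.CY

universe u v w x y

section quot

variable {H : Type u} [Group H] {S : Type v} [Group S] {Y : Type w} [MulAction H Y]

/-- the action of the quotient -/
@[reducible] noncomputable def qAct (π : H →* S) (hπ : Function.Surjective π) (hk : ∀ h, π h = 1 → ∀ y : Y, h • y = y) :
    MulAction S Y where
  smul s y := Function.surjInv hπ s • y
  one_smul y := hk _ (Function.surjInv_eq hπ 1) y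
  mul_smul s t y := by
    show Function.surjInv hπ (s * t) • y = Function.surjInv hπ s • Function.surjInv hπ t • y
    have h1 : π ((Function.surjInv hπ s * Function.surjInv hπ t)⁻¹ * Function.surjInv hπ (s * t)) = 1 := by
      rw [map_mul, map_inv, map_mul, Function.surjInv_eq hπ, Function.surjInv_eq hπ, Function.surjInv_eq hπ,
        inv_mul_cancel]
    have h2 := hk _ h1 y
    rw [mul_smul, inv_smul_eq_iff, mul_smul] at h2
    exact h2

theorem qAct_smul (π : H →* S) (hπ : Function.Surjective π) (hk : ∀ h, π h = 1 → ∀ y : Y, h • y = y) (h : H) (y : Y) :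
    (letI := qAct π hπ hk; π h • y) = h • y := by
  show Function.surjInv hπ (π h) • y = h • y
  have h1 : π (h⁻¹ * Function.surjInv hπ (π h)) = 1 := by
    rw [map_mul, map_inv, Function.surjInv_eq hπ, inv_mul_cancel]
  have h2 := hk _ h1 y
  rw [mul_smul, inv_smul_eq_iff] at h2
  exact h2

theorem r3_q (π : H →* S) (hπ : Function.Surjective π) (hk : ∀ h, π h = 1 → ∀ y : Y, h • y = y) {R : Y → Y → Prop}
    {k l : ℕ} (h : R3 H Y R k l) : letI := qAct π hπ hk; R3 S Y R k l := by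
  let _ := qAct π hπ hk
  have key : ∀ (g : H) (y : Y), π g • y = g • y := qAct_smul π hπ hk
  refine ⟨⟨fun x y => ?_⟩, h.symm, h.irr, fun g x y hxy => ?_, fun x y x' y' h1 h2 => ?_, fun x y x' y' h1 h2 h3 h4 => ?_,
    h.cardk, h.k0, h.l0, h.cardn⟩
  · obtain ⟨g, hg⟩ := h.trans.exists_smul_eq x y
    exact ⟨π g, (key g x).trans hg⟩
  · obtain ⟨g, rfl⟩ := hπ g
    rw [key, key]
    exact h.inv g x y hxy
  · obtain ⟨g, h3, h4⟩ := h.one x y x' y' h1 h2
    exact ⟨π g, (key g x).trans h3, (key g y).trans h4⟩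
  · obtain ⟨g, h5, h6⟩ := h.two x y x' y' h1 h2 h3 h4
    exact ⟨π g, (key g x).trans h5, (key g y).trans h6⟩

end quot

/-- different points have different stabilizers -/
theorem stab_inj {S : Type v} [Group S] {Y : Type w} [MulAction S Y] {R : Y → Y → Prop} {k l : ℕ} (h : R3 S Y R k l)
    (hk : k ≠ 1) (hl : l ≠ 1) (x y : Y) (hs : stabilizer S x = stabilizer S y) : x = y := by
  classical
  have hn := h.cardn
  have hfin : Finite Y := Nat.finite_of_card_ne_zero (by omega)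
  have := Fintype.ofFinite Y
  by_contra hne
  by_cases hR : R x y
  · have h1 : 1 < Nat.card {z // R x z} := by
      have := h.k0
      rw [h.cardk]; omega
    have := Finite.one_lt_card_iff_nontrivial.1 h1
    obtain ⟨⟨z, hz⟩, hzy⟩ := exists_ne (⟨y, hR⟩ : {z // R x z})
    obtain ⟨g, h3, h4⟩ := h.one x y x z hR hz
    have h5 : g ∈ stabilizer S x := h3
    rw [hs] at h5
    exact hzy (Subtype.ext (h4.symm.trans h5))
  · have hsum : Nat.card Y = 1 + Nat.card {z // R x z} + Nat.card {z // x ≠ z ∧ ¬ R x z} := by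
      rw [Nat.card_eq_fintype_card, Nat.card_eq_fintype_card, Nat.card_eq_fintype_card, Fintype.card_subtype,
        Fintype.card_subtype, ← Finset.card_univ]
      have e1 : (Finset.univ : Finset Y) = ({x} ∪ Finset.univ.filter fun z => R x z) ∪
          Finset.univ.filter fun z => x ≠ z ∧ ¬ R x z := by
        ext z
        simp only [Finset.mem_univ, Finset.mem_union, Finset.mem_singleton, Finset.mem_filter, true_and, true_iff]
        by_cases h1 : z = x
        · exact Or.inl (Or.inl h1)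
        · by_cases h2 : R x z
          · exact Or.inl (Or.inr h2)
          · exact Or.inr ⟨fun h3 => h1 h3.symm, h2⟩
      conv_lhs => rw [e1]
      rw [Finset.card_union_of_disjoint, Finset.card_union_of_disjoint, Finset.card_singleton]
      · rw [Finset.disjoint_left]
        intro z h1 h2
        rw [Finset.mem_singleton] at h1
        rw [h1] at h2
        exact h.irr x (Finset.mem_filter.1 h2).2
      · rw [Finset.disjoint_left]
        intro z h1 h2
        have h3 := (Finset.mem_filter.1 h2).2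
        rcases Finset.mem_union.1 h1 with h4 | h4
        · exact h3.1 (Finset.mem_singleton.1 h4).symm
        · exact h3.2 (Finset.mem_filter.1 h4).2
    have h1 : 1 < Nat.card {z // x ≠ z ∧ ¬ R x z} := by
      have := h.l0
      have := h.cardk x
      omega
    have := Finite.one_lt_card_iff_nontrivial.1 h1
    obtain ⟨⟨z, hz⟩, hzy⟩ := exists_ne (⟨y, fun h0 => hne h0, hR⟩ : {z // x ≠ z ∧ ¬ R x z})
    obtain ⟨g, h3, h4⟩ := h.two x y x z hne hR hz.1 hz.2
    have h5 : g ∈ stabilizer S x := h3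
    rw [hs] at h5
    exact hzy (Subtype.ext (h4.symm.trans h5))

section core

variable {K : Type u} [Field K] {V : Type v} [AddCommGroup V] [Module K V] {F : CForm K V}
  {X : Type w} [AddCommGroup X] [Module K X] {F' : CForm K X} {n : ℕ} {e f : Fin n → V} {j : X →ₗ[K] V}
  {X₁ : Type x} [AddCommGroup X₁] [Module K X₁] {F₁ : CForm K X₁} {e₀ f₀ : V} {j₁ : X₁ →ₗ[K] V}

/-- **the row for `p ∣ |K| - 1`** -/
theorem rowA_of_frm {p : ℕ} [Fact p.Prime] (hp2 : p ≠ 2) [Finite K] [FiniteDimensional K V] [Finite V] [Finite X₁]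
    (hpK : p ∣ Nat.card K - 1) {m P' : ℕ} (hm : 1 ≤ m) (hpm : ¬ p ∣ m) (hP' : 1 ≤ P') (hpP : p ∣ P' - 1)
    (h₁ : Hyp F F₁ e₀ f₀ j₁)
    (hX₁ : Nat.card {x : X₁ // F₁.Sing x} = (Nat.card K ^ m - 1) * (P' + 1) + 1)
    (hV : Nat.card {v : V // F.Sing v} = (Nat.card K * Nat.card K ^ m - 1) * (Nat.card K * P' + 1) + 1)
    (H : Subgroup F.iso) (hH : ∀ (g : F.iso) (x y : F.Pt), ∃ h ∈ H, h • x = g • x ∧ h • y = g • y)
    (h : Frm F F' e f j) (hX : ∀ x, F'.Sing x → x = 0)
    {c : K} (hcp : c ^ p = 1) (hc1 : c ≠ 1) (hcc : c * F.σ c ≠ 1)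
    (hz : ∀ (i : Fin n) (g : F.iso), Diag F e f j p (fun l => if l = i then c else 1) (g : V ≃ₗ[K] V) → g ∈ H)
    (hu : ∀ i l, i ≠ l → (∃ u, F.Sing u ∧ F.B u (e i) = 0 ∧ F.B u (f i) = 0 ∧ F.B (e l) u ≠ 0 ∧ ∀ t : K, u ≠ t • f l) ∧
      ∃ u, F.Sing u ∧ F.B u (e i) = 0 ∧ F.B u (f i) = 0 ∧ F.B (f l) u ≠ 0 ∧ ∀ t : K, u ≠ t • e l)
    {S : Type y} [Group S] [Fintype S] (π : H →* S) (hπ : Function.Surjective π)
    (hk : ∀ g, π g = 1 → ∀ y : F.Pt, g • y = y)
    (hst : letI := qAct π hπ hk; ∀ (α : MulAut S) (x : F.Pt), ∃ y : F.Pt,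
      (stabilizer S x).map (MulEquiv.toMonoidHom α) = stabilizer S y) : RowA p S := by
  classical
  have hp : p.Prime := Fact.out
  let _ := qAct π hπ hk
  have key : ∀ (g : H) (y : F.Pt), π g • y = g • y := qAct_smul π hπ hk
  -- numbers
  have hq1 : 1 < Nat.card K := Finite.one_lt_card
  obtain ⟨q, hq⟩ : ∃ q, q = Nat.card K := ⟨_, rfl⟩
  rw [← hq] at hpK hX₁ hV hq1
  have hp3 : 3 ≤ p := by
    have := hp.two_le
    omega
  have hq4 : 4 ≤ q := by
    have := Nat.le_of_dvd (by omega) hpK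
    omega
  obtain ⟨P, hPP⟩ : ∃ P, P = q ^ m := ⟨_, rfl⟩
  rw [← hPP] at hX₁ hV
  have hP2 : 4 ≤ P := by
    rw [hPP]
    calc 4 ≤ q := hq4
      _ = q ^ 1 := (pow_one q).symm
      _ ≤ q ^ m := Nat.pow_le_pow_right (by omega) hm
  obtain ⟨b, hb⟩ : ∃ b, b = Nat.card F₁.Pt := ⟨_, rfl⟩
  have hb' := card_sing (F := F₁)
  rw [← hb, ← hq, hX₁] at hb'
  have hb1 : (q - 1) * b = (P - 1) * (P' + 1) := Nat.add_right_cancel hb'
  have hb0 : 0 < b := by
    rcases Nat.eq_zero_or_pos b with h0 | h0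
    · exfalso
      rw [h0, mul_zero] at hb1
      have : 0 < (P - 1) * (P' + 1) := Nat.mul_pos (by omega) (by omega)
      omega
    · exact h0
  obtain ⟨s, rfl⟩ : ∃ s, q = s + 1 := ⟨q - 1, by omega⟩
  obtain ⟨t, rfl⟩ : ∃ t, P = t + 1 := ⟨P - 1, by omega⟩
  rw [Nat.add_sub_cancel] at hpK
  rw [Nat.add_sub_cancel, Nat.add_sub_cancel] at hb1
  have hl : (Nat.card K - 1) * (1 + Nat.card K * b + (s + 1) * ((t + 1) * P')) + 1 = Nat.card {v : V // F.Sing v} := by
    rw [hV, ← hq, Nat.add_sub_cancel]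
    have e1 : (s + 1) * (t + 1) - 1 = s * t + s + t := by
      have : (s + 1) * (t + 1) = s * t + s + t + 1 := by ring
      omega
    rw [e1]
    have e2 : s * (1 + (s + 1) * b + (s + 1) * ((t + 1) * P')) + 1 =
        s + (s + 1) * (s * b) + s * ((s + 1) * ((t + 1) * P')) + 1 := by ring
    rw [e2, hb1]
    ring
  obtain ⟨hr3, x₀, y₀, hxy, hR, hcom⟩ := r3 h₁ (b := b) (l := (s + 1) * ((t + 1) * P')) (by
    rw [← hq, Nat.add_sub_cancel, hb1, hX₁, Nat.add_sub_cancel]) hl hb0 (by positivity) H hH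
  rw [← hq] at hr3
  have hr3' := r3_q π hπ hk hr3
  obtain ⟨a, ha, hb2, hkk⟩ := Cfsg.Agent.H314.CY.com_of_r3 (S := S) hr3' hxy hR hcom
  have hbZ : (s : ℤ) * b = t * (P' + 1) := by exact_mod_cast hb1
  have hb0Z : (b : ℤ) ≠ 0 := by exact_mod_cast hb0.ne'
  have hkkZ : ((s + 1) * b : ℤ) * ((s + 1) * b) = (s + 1) * b + (s + 1) * b * a + (s + 1) * ((t + 1) * P') * b := by
    exact_mod_cast hkk
  have haZ : (a : ℤ) = (s + 1) * b - 1 - (t + 1) * P' := by
    have h1 : ((s : ℤ) + 1) * b ≠ 0 := mul_ne_zero (by positivity) hb0Z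
    apply mul_left_cancel₀ h1
    linear_combination -hkkZ
  have hpZ : Prime (p : ℤ) := Nat.prime_iff_prime_int.1 hp
  -- `p ∣ t`
  have hsZ : (p : ℤ) ∣ s := by exact_mod_cast hpK
  have htZ : (p : ℤ) ∣ t := by
    have h1 : ((t : ℤ) + 1) = (s + 1) ^ m := by exact_mod_cast hPP
    have h2 : (t : ℤ) = (s + 1) ^ m - 1 ^ m := by rw [one_pow, ← h1]; ring
    rw [h2]
    exact hsZ.trans (by
      have := sub_dvd_pow_sub_pow ((s : ℤ) + 1) 1 m
      rwa [add_sub_cancel_right] at this)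
  have hP'Z : (p : ℤ) ∣ (P' : ℤ) - 1 := by
    have : ((P' - 1 : ℕ) : ℤ) = (P' : ℤ) - 1 := by
      rw [Nat.cast_sub hP']; simp
    rw [← this]
    exact_mod_cast hpP
  have hp2Z : ¬ (p : ℤ) ∣ 2 := by
    intro h1
    have h2 : p ∣ 2 := by exact_mod_cast h1
    have := Nat.le_of_dvd (by norm_num) h2
    omega
  -- `¬ p ∣ b`
  have hpb : ¬ (p : ℤ) ∣ b := by
    intro h1
    have hg : (∑ i ∈ Finset.range m, ((s : ℤ) + 1) ^ i) * s = t := by
      have h2 := geom_sum_mul ((s : ℤ) + 1) m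
      rw [add_sub_cancel_right] at h2
      have h1 : ((t : ℤ) + 1) = (s + 1) ^ m := by exact_mod_cast hPP
      rw [h2, ← h1]; ring
    have hs0 : (s : ℤ) ≠ 0 := by
      have : s ≠ 0 := by omega
      exact_mod_cast this
    have hbg : (b : ℤ) = (∑ i ∈ Finset.range m, ((s : ℤ) + 1) ^ i) * (P' + 1) := by
      apply mul_left_cancel₀ hs0
      rw [hbZ, ← hg]; ring
    rw [hbg] at h1
    rcases hpZ.dvd_or_dvd h1 with h2 | h2
    · apply hpm
      have h3 : (p : ℤ) ∣ (∑ i ∈ Finset.range m, ((s : ℤ) + 1) ^ i) - m := by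
        have h4 : (∑ i ∈ Finset.range m, ((s : ℤ) + 1) ^ i) - m = ∑ i ∈ Finset.range m, (((s : ℤ) + 1) ^ i - 1) := by
          rw [Finset.sum_sub_distrib, Finset.sum_const, Finset.card_range]
          simp
        rw [h4]
        refine Finset.dvd_sum fun i _ => hsZ.trans ?_
        have := sub_dvd_pow_sub_pow ((s : ℤ) + 1) 1 i
        rwa [add_sub_cancel_right, one_pow] at this
      have h5 := (dvd_sub h2 h3)
      rw [sub_sub_cancel] at h5
      exact_mod_cast h5
    · apply hp2Z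
      have h3 := dvd_sub h2 hP'Z
      have h4 : ((P' : ℤ) + 1) - (P' - 1) = 2 := by ring
      rwa [h4] at h3
  have hs3 : 3 ≤ s := by omega
  refine Cfsg.Agent.H769.CY.rowA_of_r3 (p := p) hr3' ?_ (stab_inj hr3' ?_ ?_) ha hb2 (r := -((P' : ℤ) + 1)) (s := t) ?_ ?_ ?_
    htZ ?_ ?_ (Q := (torT F e f j hp.ne_zero H).map π) ((isPGroup_torT h hp.ne_zero H).map π) ?_ hst
  · -- `k ≠ l`
    intro h1
    have h2 : b = (t + 1) * P' := Nat.eq_of_mul_eq_mul_left (Nat.succ_pos s) h1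
    rw [h2] at hb1
    have h3 : 3 * ((t + 1) * P') ≤ t * (P' + 1) := by
      rw [← hb1]
      exact Nat.mul_le_mul_right _ hs3
    nlinarith
  · intro h1
    have := Nat.eq_one_of_mul_eq_one_right h1
    omega
  · intro h1
    have := Nat.eq_one_of_mul_eq_one_right h1
    omega
  · rw [haZ]
    linear_combination (-1 : ℤ) * hbZ
  · push_cast
    linear_combination hbZ
  · have : 1 ≤ t := by omega
    exact_mod_cast this
  · intro h1
    apply hp2Z
    have h3 := dvd_add h1 hP'Z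
    have h4 : -((P' : ℤ) + 1) + (P' - 1) = -2 := by ring
    rw [h4] at h3
    exact (dvd_neg (α := ℤ)).1 h3
  · intro h1
    rcases hp.dvd_mul.1 h1 with h2 | h2
    · have h3 : p ∣ 1 := by
        have := (Nat.dvd_add_right hpK).1 h2
        exact this
      exact hp.one_lt.ne' (Nat.dvd_one.1 h3)
    · exact hpb (by exact_mod_cast h2)
  · -- `LocQ`
    intro x y hx hy hxy'
    obtain ⟨z, hz1, hz2, hz3⟩ := loc_torT h hX hp.ne_zero hcp hc1 hcc hz hu (x := x) (y := y)
      (fun g hg => (key g x).symm.trans (hx _ ⟨g, hg, rfl⟩)) (fun g hg => (key g y).symm.trans (hy _ ⟨g, hg, rfl⟩)) hxy'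
    refine ⟨π z, ⟨z, hz1, rfl⟩, ?_⟩
    have h1 : ∀ y : F.Pt, Cfsg.Agent.H769.CY.NN F.Rel (π z) y = NNp F (z : F.iso) y := by
      intro y
      unfold Cfsg.Agent.H769.CY.NN NNp
      refine Nat.card_congr (Equiv.subtypeEquivRight fun w => ?_)
      rw [key]
      rfl
    rw [h1, h1, hz2]
    exact hz3

end core

end Cfsg.Agent.H530.CY
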