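import Cfsg.Agent.H477.HC.Frames

/-!
# S4829, polar spaces, `p ∣ Q - 1`: the frame points (helper530)

`F : CForm K V` with a full hyperbolic frame `e`, `f` and an anisotropic complement `j`; `c ^ p = 1`, `c σ(c) ≠ 1`.
`exists_z` : `z(c) : a ↦ c a`, `b ↦ σ(c)⁻¹ b`, identity on the complement, is an isometry;
`fix_z` : the points fixed by `z`; `torT` : the group of all diagonal elements with entries `c ^ p = 1` (a `p`-group);
`fix_torT` : its fixed points are the frame points; `loc_torT` : the local condition of helper769.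
-/

set_option autoImplicit false
set_option linter.unusedSectionVars false

open Cfsg Module Cfsg.Agent.H477.HC Cfsg.Agent.H477.HC.CForm

namespace Cfsg.Agent.H530.CY

universe u v w

variable {K : Type u} [Field K] {V : Type v} [AddCommGroup V] [Module K V] {F : CForm K V}
  {X : Type w} [AddCommGroup X] [Module K X] {F' : CForm K X} {n : ℕ} {e f : Fin n → V} {j : X →ₗ[K] V}

theorem hfe (h : Frm F F' e f j) (i l : Fin n) : F.B (f i) (e l) = if i = l then F.ε else 0 := by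
  rw [F.B_symm, h.hef]
  by_cases hil : i = l
  · rw [if_pos hil, if_pos hil.symm, map_one, mul_one]
  · rw [if_neg hil, if_neg (fun h' => hil h'.symm), map_zero, mul_zero]

/-- the torus element of a hyperbolic pair -/
theorem exists_z [FiniteDimensional K V] {a b : V} (ha : F.Sing a) (hb : F.Sing b) (hab : F.B a b = 1) {c : K}
    (hc : c ≠ 0) : ∃ g : F.iso, ∀ v, (g : V ≃ₗ[K] V) v =
      v + ((c - 1) * F.B v b) • a + (((F.σ c)⁻¹ - 1) * (F.ε⁻¹ * F.B v a)) • b := by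
  have hba : F.B b a = F.ε := by rw [F.B_symm, hab, map_one, mul_one]
  have hsc : F.σ c ≠ 0 := (map_ne_zero F.σ).2 hc
  have he := F.ε_ne
  let φ : V →ₗ[K] V :=
    { toFun := fun v => v + ((c - 1) * F.B v b) • a + (((F.σ c)⁻¹ - 1) * (F.ε⁻¹ * F.B v a)) • b
      map_add' := fun x y => by
        rw [F.B_add_left, F.B_add_left]
        module
      map_smul' := fun t x => by
        rw [F.B_smul_left, F.B_smul_left, RingHom.id_apply]
        module }
  refine F.exists_iso φ (fun u v => ?_) (fun v => ?_)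
  · change F.B (u + ((c - 1) * F.B u b) • a + (((F.σ c)⁻¹ - 1) * (F.ε⁻¹ * F.B u a)) • b)
      (v + ((c - 1) * F.B v b) • a + (((F.σ c)⁻¹ - 1) * (F.ε⁻¹ * F.B v a)) • b) = F.B u v
    simp only [F.B_add_left, F.B_add_right, F.B_smul_left, F.B_smul_right, hab, hba, ha.2, hb.2, map_mul, map_sub,
      map_one, map_inv₀, F.σσ, F.σε, inv_inv]
    rw [F.B_symm a v, F.B_symm b v]
    field_simp
    ring
  · change F.Q (v + ((c - 1) * F.B v b) • a + (((F.σ c)⁻¹ - 1) * (F.ε⁻¹ * F.B v a)) • b) = F.Q v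
    rw [add_assoc, F.Q_add, F.Q_add, F.Q_smul, F.Q_smul, ha.1, hb.1]
    simp only [F.B_add_right, F.B_smul_right, F.B_smul_left, hab, mul_zero, add_zero, zero_add, map_mul, map_sub,
      map_one, map_inv₀, F.σσ, F.σε, inv_inv, mul_one]
    rw [add_assoc, ← F.T_add]
    have h1 : (c⁻¹ - 1) * (F.ε * F.σ (F.B v a)) * ((c - 1) * F.B v b) +
        ((F.σ c - 1) * F.σ (F.B v b) * F.B v a + (c⁻¹ - 1) * (F.ε * F.σ (F.B v a)) * F.B v b) =
        (F.σ c - 1) * F.σ (F.B v b) * F.B v a - F.ε * F.σ ((F.σ c - 1) * F.σ (F.B v b) * F.B v a) := by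
      simp only [map_mul, map_sub, map_one, F.σσ]
      field_simp
      ring
    rw [h1, F.T_sub, F.T_symm, sub_self, add_zero]

section fixz

variable {a b : V} {c : K} {g : F.iso}

/-- **the points fixed by `z`** -/
theorem fix_z (ha : F.Sing a) (hb : F.Sing b) (hab : F.B a b = 1) (hc : c ≠ 0) (hc1 : c ≠ 1) (hcc : c * F.σ c ≠ 1)
    (hg : ∀ v, (g : V ≃ₗ[K] V) v = v + ((c - 1) * F.B v b) • a + (((F.σ c)⁻¹ - 1) * (F.ε⁻¹ * F.B v a)) • b)
    {v : V} {h0 : v ≠ 0} {hv : F.Sing v} (hfix : g • F.pt v h0 hv = F.pt v h0 hv) :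
    (F.B v a = 0 ∧ F.B v b = 0) ∨ (∃ t : K, v = t • a) ∨ ∃ t : K, v = t • b := by
  rw [F.smul_pt, F.pt_eq_iff] at hfix
  obtain ⟨l, hl0, hl⟩ := hfix
  have hba : F.B b a = F.ε := by rw [F.B_symm, hab, map_one, mul_one]
  have hsc : F.σ c ≠ 0 := (map_ne_zero F.σ).2 hc
  have hsc1 : (F.σ c)⁻¹ - 1 ≠ 0 := by
    intro h1
    have h2 : (F.σ c)⁻¹ = 1 := sub_eq_zero.1 h1
    have h3 : F.σ c = 1 := by rw [← inv_inv (F.σ c), h2, inv_one]
    exact hc1 (F.σ.injective (by rw [h3, map_one]))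
  have he := F.ε_ne
  rw [hg] at hl
  have h1 : (l - 1) * F.B v b = (c - 1) * F.B v b := by
    have := congrArg (fun x => F.B x b) hl
    simp only [F.B_add_left, F.B_smul_left, hab, hb.2, mul_one, mul_zero, add_zero] at this
    linear_combination -this
  have h2 : (l - 1) * F.B v a = ((F.σ c)⁻¹ - 1) * F.B v a := by
    have := congrArg (fun x => F.B x a) hl
    simp only [F.B_add_left, F.B_smul_left, hba, ha.2, mul_zero, add_zero] at this
    have h3 : ((F.σ c)⁻¹ - 1) * (F.ε⁻¹ * F.B v a) * F.ε = ((F.σ c)⁻¹ - 1) * F.B v a := by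
      field_simp
    rw [h3] at this
    linear_combination -this
  by_cases hl1 : l = 1
  · left
    subst hl1
    rw [sub_self, zero_mul] at h1 h2
    exact ⟨(mul_eq_zero.1 h2.symm).resolve_left hsc1, (mul_eq_zero.1 h1.symm).resolve_left (sub_ne_zero.2 hc1)⟩
  · right
    have hl1' : l - 1 ≠ 0 := sub_ne_zero.2 hl1
    have h3 : (l - 1) • v = ((c - 1) * F.B v b) • a + (((F.σ c)⁻¹ - 1) * (F.ε⁻¹ * F.B v a)) • b := by
      rw [sub_smul, one_smul, ← hl]; abel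
    have h4 : v = (l - 1)⁻¹ • (((c - 1) * F.B v b) • a + (((F.σ c)⁻¹ - 1) * (F.ε⁻¹ * F.B v a)) • b) := by
      rw [← h3, smul_smul, inv_mul_cancel₀ hl1', one_smul]
    by_cases hvb : F.B v b = 0
    · right
      refine ⟨(l - 1)⁻¹ * (((F.σ c)⁻¹ - 1) * (F.ε⁻¹ * F.B v a)), ?_⟩
      conv_lhs => rw [h4]
      rw [hvb, mul_zero, zero_smul, zero_add, smul_smul]
    · left
      have h5 : l - 1 = c - 1 := mul_right_cancel₀ hvb h1
      have hva : F.B v a = 0 := by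
        by_contra hva
        have h6 : l - 1 = (F.σ c)⁻¹ - 1 := mul_right_cancel₀ hva h2
        have h7 : c = (F.σ c)⁻¹ := by linear_combination h6 - h5
        apply hcc
        rw [h7]
        nth_rewrite 2 [← h7]
        exact inv_mul_cancel₀ hsc
      refine ⟨(l - 1)⁻¹ * ((c - 1) * F.B v b), ?_⟩
      conv_lhs => rw [h4]
      rw [hva, mul_zero, mul_zero, zero_smul, add_zero, smul_smul]

end fixz

theorem card_ne_one {α : Type*} {x y : α} (h : x ≠ y) : Nat.card α ≠ 1 := by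
  intro h1
  obtain ⟨h2, -⟩ := Nat.card_eq_one_iff_unique.1 h1
  exact h (Subsingleton.elim x y)

/-- the decomposition along the frame -/
theorem decomp [FiniteDimensional K V] (h : Frm F F' e f j) (v : V) : ∃ x : X,
    v = ∑ i, F.B v (f i) • e i + ∑ i, (F.ε⁻¹ * F.B v (e i)) • f i + j x := by
  classical
  have he := F.ε_ne
  have k1 : ∀ l, F.B (v - (∑ i, F.B v (f i) • e i + ∑ i, (F.ε⁻¹ * F.B v (e i)) • f i)) (e l) = 0 := by
    intro l
    have h1 := map_sum (F.lf (e l)) (fun i => F.B v (f i) • e i) Finset.univ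
    have h2 := map_sum (F.lf (e l)) (fun i => (F.ε⁻¹ * F.B v (e i)) • f i) Finset.univ
    simp only [F.lf_apply, F.B_smul_left, h.hee, hfe h, mul_zero, Finset.sum_const_zero, mul_ite, Finset.sum_ite_eq',
      Finset.mem_univ, if_true] at h1 h2
    rw [F.B_sub_left, F.B_add_left, h1, h2]
    field_simp
    simp
  have k2 : ∀ l, F.B (v - (∑ i, F.B v (f i) • e i + ∑ i, (F.ε⁻¹ * F.B v (e i)) • f i)) (f l) = 0 := by
    intro l
    have h1 := map_sum (F.lf (f l)) (fun i => F.B v (f i) • e i) Finset.univ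
    have h2 := map_sum (F.lf (f l)) (fun i => (F.ε⁻¹ * F.B v (e i)) • f i) Finset.univ
    simp only [F.lf_apply, F.B_smul_left, h.hff, h.hef, mul_zero, Finset.sum_const_zero, mul_ite, mul_one,
      Finset.sum_ite_eq', Finset.mem_univ, if_true] at h1 h2
    rw [F.B_sub_left, F.B_add_left, h1, h2]
    ring
  obtain ⟨x, hx⟩ := F.frame_decomp F' j h.hee h.hff h.hef h.hjB h.hje h.hjf h.hdim _ k1 k2
  exact ⟨x, by rw [← hx]; abel⟩

/-- diagonal with entries of order dividing `p` -/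
def Diag (F : CForm K V) (e f : Fin n → V) (j : X →ₗ[K] V) (p : ℕ) (t : Fin n → K) (g : V ≃ₗ[K] V) : Prop :=
  (∀ i, t i ^ p = 1) ∧ (∀ i, g (e i) = t i • e i) ∧ (∀ i, g (f i) = (F.σ (t i))⁻¹ • f i) ∧ ∀ x, g (j x) = j x

/-- **the torus elements of order `p`** -/
def torT (F : CForm K V) (e f : Fin n → V) (j : X →ₗ[K] V) {p : ℕ} (hp : p ≠ 0) (H : Subgroup F.iso) : Subgroup H where
  carrier := {g | ∃ t : Fin n → K, Diag F e f j p t ((g : F.iso) : V ≃ₗ[K] V)}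
  one_mem' := ⟨fun _ => 1, fun _ => one_pow p, fun i => (one_smul K (e i)).symm,
    fun i => by
      show f i = (F.σ 1)⁻¹ • f i
      rw [map_one, inv_one, one_smul], fun x => rfl⟩
  mul_mem' := by
    rintro g g' ⟨t, h1, h2, h3, h4⟩ ⟨t', h1', h2', h3', h4'⟩
    refine ⟨fun i => t i * t' i, fun i => by rw [mul_pow, h1, h1', mul_one], fun i => ?_, fun i => ?_, fun x => ?_⟩
    · show ((g : F.iso) : V ≃ₗ[K] V) (((g' : F.iso) : V ≃ₗ[K] V) (e i)) = _
      rw [h2', map_smul, h2, smul_smul, mul_comm]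
    · show ((g : F.iso) : V ≃ₗ[K] V) (((g' : F.iso) : V ≃ₗ[K] V) (f i)) = _
      rw [h3', map_smul, h3, smul_smul, map_mul, mul_inv, mul_comm]
    · show ((g : F.iso) : V ≃ₗ[K] V) (((g' : F.iso) : V ≃ₗ[K] V) (j x)) = _
      rw [h4', h4]
  inv_mem' := by
    rintro g ⟨t, h1, h2, h3, h4⟩
    have ht : ∀ i, t i ≠ 0 := by
      intro i h0
      have := h1 i
      rw [h0, zero_pow hp] at this
      exact zero_ne_one this
    have key : ∀ v w : V, ((g : F.iso) : V ≃ₗ[K] V) v = w → (((g⁻¹ : H) : F.iso) : V ≃ₗ[K] V) w = v := by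
      rintro v w rfl
      exact ((g : F.iso) : V ≃ₗ[K] V).symm_apply_apply v
    refine ⟨fun i => (t i)⁻¹, fun i => by rw [inv_pow, h1, inv_one], fun i => ?_, fun i => ?_, fun x => ?_⟩
    · apply key
      rw [map_smul, h2, smul_smul, inv_mul_cancel₀ (ht i), one_smul]
    · apply key
      rw [map_smul, h3, smul_smul, map_inv₀, inv_inv, mul_inv_cancel₀ ((map_ne_zero F.σ).2 (ht i)), one_smul]
    · exact key _ _ (h4 x)

theorem mem_torT {p : ℕ} {hp : p ≠ 0} {H : Subgroup F.iso} {g : H} :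
    g ∈ torT F e f j hp H ↔ ∃ t : Fin n → K, Diag F e f j p t ((g : F.iso) : V ≃ₗ[K] V) := Iff.rfl

theorem isPGroup_torT [FiniteDimensional K V] (h : Frm F F' e f j) {p : ℕ} (hp : p ≠ 0) (H : Subgroup F.iso) :
    IsPGroup p (torT F e f j hp H) := by
  rintro ⟨g, t, h1, h2, h3, h4⟩
  refine ⟨1, ?_⟩
  rw [pow_one]
  apply Subtype.ext
  show g ^ p = 1
  apply Subtype.ext
  apply Subtype.ext
  have hpow : ∀ k : ℕ, (((g ^ k : H) : F.iso) : V ≃ₗ[K] V) = ((g : F.iso) : V ≃ₗ[K] V) ^ k := fun k => by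
    rw [Subgroup.coe_pow, Subgroup.coe_pow]
  rw [hpow]
  set G : V ≃ₗ[K] V := ((g : F.iso) : V ≃ₗ[K] V) with hG
  have e1 : ∀ (k : ℕ) (i : Fin n), (G ^ k) (e i) = t i ^ k • e i := by
    intro k i
    induction k with
    | zero => rw [pow_zero, pow_zero, one_smul]; rfl
    | succ k ih =>
      rw [pow_succ', LinearEquiv.mul_apply, ih, map_smul, h2, smul_smul, pow_succ]
  have e2 : ∀ (k : ℕ) (i : Fin n), (G ^ k) (f i) = (F.σ (t i))⁻¹ ^ k • f i := by
    intro k i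
    induction k with
    | zero => rw [pow_zero, pow_zero, one_smul]; rfl
    | succ k ih =>
      rw [pow_succ', LinearEquiv.mul_apply, ih, map_smul, h3, smul_smul, pow_succ]
  have e3 : ∀ (k : ℕ) (x : X), (G ^ k) (j x) = j x := by
    intro k x
    induction k with
    | zero => rw [pow_zero]; rfl
    | succ k ih => rw [pow_succ', LinearEquiv.mul_apply, ih, h4]
  ext v
  obtain ⟨x, hx⟩ := decomp h v
  have h5 : (G ^ p) v = v := by
    conv_lhs => rw [hx]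
    rw [map_add, map_add, map_sum, map_sum, e3]
    conv_rhs => rw [hx]
    congr 1
    congr 1
    · refine Finset.sum_congr rfl fun i _ => ?_
      rw [map_smul, e1, h1, one_smul]
    · refine Finset.sum_congr rfl fun i _ => ?_
      rw [map_smul, e2, inv_pow, ← map_pow, h1, map_one, inv_one, one_smul]
  exact h5

/-- the element `z_i(c)` -/
theorem exists_zi [FiniteDimensional K V] (h : Frm F F' e f j) (i : Fin n) {c : K} (hc : c ≠ 0) :
    ∃ g : F.iso, (∀ v, (g : V ≃ₗ[K] V) v =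
      v + ((c - 1) * F.B v (f i)) • e i + (((F.σ c)⁻¹ - 1) * (F.ε⁻¹ * F.B v (e i))) • f i) ∧
      ∀ p : ℕ, c ^ p = 1 → Diag F e f j p (fun l => if l = i then c else 1) (g : V ≃ₗ[K] V) := by
  obtain ⟨g, hg⟩ := exists_z ⟨h.hQe i, h.hee i i⟩ ⟨h.hQf i, h.hff i i⟩ (by rw [h.hef, if_pos rfl]) hc
  have he := F.ε_ne
  refine ⟨g, hg, fun p hp => ⟨fun l => ?_, fun l => ?_, fun l => ?_, fun x => ?_⟩⟩
  · show (if l = i then c else 1) ^ p = 1
    split_ifs
    · exact hp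
    · exact one_pow p
  · rw [hg, h.hee, h.hef]
    by_cases hl : l = i
    · subst hl
      simp only [if_true, mul_one, mul_zero, zero_smul, add_zero]
      module
    · simp only [if_neg hl, mul_zero, zero_smul, add_zero, one_smul]
  · rw [hg, h.hff, hfe h]
    by_cases hl : l = i
    · subst hl
      simp only [if_true, mul_zero, zero_smul, add_zero]
      rw [inv_mul_cancel₀ he]
      module
    · simp only [if_neg hl, mul_zero, zero_smul, add_zero, map_one, inv_one, one_smul]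
  · rw [hg, h.hje, h.hjf]
    simp only [mul_zero, zero_smul, add_zero]

/-- the number of points `w ≠ y` fixed by `z` and not related to `y` -/
noncomputable def NNp (F : CForm K V) (z : F.iso) (y : F.Pt) : ℕ :=
  Nat.card {w : F.Pt // z • w = w ∧ w ≠ y ∧ ¬ F.Rel y w}

section loc

variable {a b : V} {c : K} {g : F.iso}

theorem fix_of_perp {u : V} (hg : ∀ v, (g : V ≃ₗ[K] V) v = v + ((c - 1) * F.B v b) • a + (((F.σ c)⁻¹ - 1) * (F.ε⁻¹ * F.B v a)) • b)
    (h0 : u ≠ 0) (hu : F.Sing u) (ha : F.B u a = 0) (hb : F.B u b = 0) : g • F.pt u h0 hu = F.pt u h0 hu := by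
  rw [F.smul_pt, F.pt_eq_iff]
  refine ⟨1, one_ne_zero, ?_⟩
  rw [hg, ha, hb]
  simp

theorem fix_a (ha : F.Sing a) (hab : F.B a b = 1) (hc : c ≠ 0)
    (hg : ∀ v, (g : V ≃ₗ[K] V) v = v + ((c - 1) * F.B v b) • a + (((F.σ c)⁻¹ - 1) * (F.ε⁻¹ * F.B v a)) • b)
    (ha0 : a ≠ 0) : g • F.pt a ha0 ha = F.pt a ha0 ha := by
  rw [F.smul_pt, F.pt_eq_iff]
  refine ⟨c, hc, ?_⟩
  rw [hg, ha.2, hab]
  simp only [mul_one, mul_zero, zero_smul, add_zero]
  module

theorem fix_b (hb : F.Sing b) (hab : F.B a b = 1) (hc : c ≠ 0)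
    (hg : ∀ v, (g : V ≃ₗ[K] V) v = v + ((c - 1) * F.B v b) • a + (((F.σ c)⁻¹ - 1) * (F.ε⁻¹ * F.B v a)) • b)
    (hb0 : b ≠ 0) : g • F.pt b hb0 hb = F.pt b hb0 hb := by
  have hba : F.B b a = F.ε := by rw [F.B_symm, hab, map_one, mul_one]
  have he := F.ε_ne
  rw [F.smul_pt, F.pt_eq_iff]
  refine ⟨(F.σ c)⁻¹, inv_ne_zero ((map_ne_zero F.σ).2 hc), ?_⟩
  rw [hg, hb.2, hba, inv_mul_cancel₀ he]
  simp only [mul_one, mul_zero, zero_smul, add_zero]
  module

/-- `NN z <a> = 1` and `NN z <b> = 1` -/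
theorem nn_eq_one (ha : F.Sing a) (hb : F.Sing b) (hab : F.B a b = 1) (hc : c ≠ 0) (hc1 : c ≠ 1) (hcc : c * F.σ c ≠ 1)
    (hg : ∀ v, (g : V ≃ₗ[K] V) v = v + ((c - 1) * F.B v b) • a + (((F.σ c)⁻¹ - 1) * (F.ε⁻¹ * F.B v a)) • b)
    (ha0 : a ≠ 0) (hb0 : b ≠ 0) : NNp F g (F.pt a ha0 ha) = 1 ∧ NNp F g (F.pt b hb0 hb) = 1 := by
  have hba : F.B b a ≠ 0 := by
    rw [F.B_symm, hab, map_one, mul_one]
    exact F.ε_ne
  have key : ∀ w : F.Pt, g • w = w → w = F.pt a ha0 ha ∨ w = F.pt b hb0 hb ∨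
      (F.Perp (F.pt a ha0 ha) w ∧ F.Perp (F.pt b hb0 hb) w) := by
    intro w hw
    obtain ⟨v, h0, hv, rfl⟩ := F.exists_pt w
    rcases fix_z ha hb hab hc hc1 hcc hg hw with ⟨h1, h2⟩ | ⟨t, ht⟩ | ⟨t, ht⟩
    · right; right
      rw [F.perp_pt, F.perp_pt]
      exact ⟨F.B_eq_zero h1, F.B_eq_zero h2⟩
    · left
      rw [F.pt_eq_iff]
      exact ⟨t, by rintro rfl; exact h0 (by rw [ht, zero_smul]), ht⟩
    · right; left
      rw [F.pt_eq_iff]
      exact ⟨t, by rintro rfl; exact h0 (by rw [ht, zero_smul]), ht⟩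
  have hnp : ¬ F.Perp (F.pt a ha0 ha) (F.pt b hb0 hb) := by
    rw [F.perp_pt, hab]; exact one_ne_zero
  have hnp' : ¬ F.Perp (F.pt b hb0 hb) (F.pt a ha0 ha) := by
    rw [F.perp_pt]; exact hba
  have hne : F.pt a ha0 ha ≠ F.pt b hb0 hb := by
    intro h1
    exact hnp (by rw [← h1]; exact F.perp_self _)
  constructor
  · unfold NNp
    rw [Nat.card_eq_one_iff_unique]
    refine ⟨⟨?_⟩, ⟨⟨F.pt b hb0 hb, fix_b hb hab hc hg hb0, hne.symm, fun h1 => hnp h1.2⟩⟩⟩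
    have h2 : ∀ w : {w : F.Pt // g • w = w ∧ w ≠ F.pt a ha0 ha ∧ ¬ F.Rel (F.pt a ha0 ha) w}, w.1 = F.pt b hb0 hb := by
      rintro ⟨w, h1, h2, h3⟩
      rcases key w h1 with h4 | h4 | h4
      · exact absurd h4 h2
      · exact h4
      · exact absurd ⟨fun h5 => h2 h5.symm, h4.1⟩ h3
    exact fun x y => Subtype.ext ((h2 x).trans (h2 y).symm)
  · unfold NNp
    rw [Nat.card_eq_one_iff_unique]
    refine ⟨⟨?_⟩, ⟨⟨F.pt a ha0 ha, fix_a ha hab hc hg ha0, hne, fun h1 => hnp' h1.2⟩⟩⟩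
    have h2 : ∀ w : {w : F.Pt // g • w = w ∧ w ≠ F.pt b hb0 hb ∧ ¬ F.Rel (F.pt b hb0 hb) w}, w.1 = F.pt a ha0 ha := by
      rintro ⟨w, h1, h2, h3⟩
      rcases key w h1 with h4 | h4 | h4
      · exact h4
      · exact absurd h4 h2
      · exact absurd ⟨fun h5 => h2 h5.symm, h4.2⟩ h3
    exact fun x y => Subtype.ext ((h2 x).trans (h2 y).symm)

/-- two opposite fixed points -/
theorem nn_ne_one {y w₁ w₂ : F.Pt} (h1 : g • w₁ = w₁) (h2 : g • w₂ = w₂) (h3 : ¬ F.Perp y w₁) (h4 : ¬ F.Perp y w₂)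
    (h5 : w₁ ≠ w₂) : NNp F g y ≠ 1 := by
  refine card_ne_one (x := (⟨w₁, h1, ?_, fun h => h3 h.2⟩ : {w : F.Pt // g • w = w ∧ w ≠ y ∧ ¬ F.Rel y w}))
    (y := ⟨w₂, h2, ?_, fun h => h4 h.2⟩) fun h => h5 (congrArg Subtype.val h)
  · rintro rfl; exact h3 (F.perp_self _)
  · rintro rfl; exact h4 (F.perp_self _)

end loc

section frame

variable [FiniteDimensional K V] {p : ℕ} {c : K} {H : Subgroup F.iso}

theorem sing_e (h : Frm F F' e f j) (i : Fin n) : F.Sing (e i) := ⟨h.hQe i, h.hee i i⟩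

theorem sing_f (h : Frm F F' e f j) (i : Fin n) : F.Sing (f i) := ⟨h.hQf i, h.hff i i⟩

theorem e_ne (h : Frm F F' e f j) (i : Fin n) : e i ≠ 0 := by
  intro h0
  have := h.hef i i
  rw [h0, F.B_zero_left, if_pos rfl] at this
  exact zero_ne_one this

theorem f_ne (h : Frm F F' e f j) (i : Fin n) : f i ≠ 0 := by
  intro h0
  have := h.hef i i
  rw [h0, F.B_zero_right, if_pos rfl] at this
  exact zero_ne_one this

/-- **the fixed points of `torT` are the frame points** -/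
theorem fix_torT (h : Frm F F' e f j) (hX : ∀ x, F'.Sing x → x = 0) (hp : p ≠ 0) (hcp : c ^ p = 1) (hc1 : c ≠ 1)
    (hcc : c * F.σ c ≠ 1)
    (hz : ∀ (i : Fin n) (g : F.iso), Diag F e f j p (fun l => if l = i then c else 1) (g : V ≃ₗ[K] V) → g ∈ H)
    {x : F.Pt} (hx : ∀ g ∈ torT F e f j hp H, g • x = x) :
    ∃ i, x = F.pt (e i) (e_ne h i) (sing_e h i) ∨ x = F.pt (f i) (f_ne h i) (sing_f h i) := by
  classical
  have hc : c ≠ 0 := by
    rintro rfl
    rw [zero_pow hp] at hcp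
    exact zero_ne_one hcp
  obtain ⟨v, h0, hv, rfl⟩ := F.exists_pt x
  by_contra hcon
  push Not at hcon
  have key : ∀ i, F.B v (e i) = 0 ∧ F.B v (f i) = 0 := by
    intro i
    obtain ⟨g, hg, hd⟩ := exists_zi h i hc
    have hgH : g ∈ H := hz i g (hd p hcp)
    have h1 : g • F.pt v h0 hv = F.pt v h0 hv := hx ⟨g, hgH⟩ ⟨_, hd p hcp⟩
    rcases fix_z (sing_e h i) (sing_f h i) (by rw [h.hef, if_pos rfl]) hc hc1 hcc hg h1 with h2 | ⟨t, ht⟩ | ⟨t, ht⟩
    · exact h2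
    · exact absurd ((F.pt_eq_iff).2 ⟨t, by rintro rfl; exact h0 (by rw [ht, zero_smul]), ht⟩) (hcon i).1
    · exact absurd ((F.pt_eq_iff).2 ⟨t, by rintro rfl; exact h0 (by rw [ht, zero_smul]), ht⟩) (hcon i).2
  obtain ⟨y, hy⟩ := F.frame_decomp F' j h.hee h.hff h.hef h.hjB h.hje h.hjf h.hdim v (fun i => (key i).1)
    (fun i => (key i).2)
  have h1 : F'.Sing y := ⟨by rw [← h.hjQ, ← hy]; exact hv.1, by rw [← h.hjB, ← hy]; exact hv.2⟩
  rw [hX y h1, map_zero] at hy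
  exact h0 hy

/-- **the local condition** -/
theorem loc_torT (h : Frm F F' e f j) (hX : ∀ x, F'.Sing x → x = 0) (hp : p ≠ 0) (hcp : c ^ p = 1) (hc1 : c ≠ 1)
    (hcc : c * F.σ c ≠ 1)
    (hz : ∀ (i : Fin n) (g : F.iso), Diag F e f j p (fun l => if l = i then c else 1) (g : V ≃ₗ[K] V) → g ∈ H)
    (hu : ∀ i l, i ≠ l → (∃ u, F.Sing u ∧ F.B u (e i) = 0 ∧ F.B u (f i) = 0 ∧ F.B (e l) u ≠ 0 ∧ ∀ t : K, u ≠ t • f l) ∧
      ∃ u, F.Sing u ∧ F.B u (e i) = 0 ∧ F.B u (f i) = 0 ∧ F.B (f l) u ≠ 0 ∧ ∀ t : K, u ≠ t • e l)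
    {x y : F.Pt} (hx : ∀ g ∈ torT F e f j hp H, g • x = x) (hy : ∀ g ∈ torT F e f j hp H, g • y = y)
    (hxy : F.Rel x y) : ∃ z ∈ torT F e f j hp H, NNp F (z : F.iso) x = 1 ∧ NNp F (z : F.iso) y ≠ 1 := by
  classical
  have hc : c ≠ 0 := by
    rintro rfl
    rw [zero_pow hp] at hcp
    exact zero_ne_one hcp
  obtain ⟨i, hi⟩ := fix_torT h hX hp hcp hc1 hcc hz hx
  obtain ⟨l, hl⟩ := fix_torT h hX hp hcp hc1 hcc hz hy
  have hne : i ≠ l := by
    rintro rfl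
    rcases hi with rfl | rfl <;> rcases hl with rfl | rfl
    · exact hxy.1 rfl
    · have h1 := F.perp_pt.1 hxy.2
      rw [h.hef, if_pos rfl] at h1
      exact one_ne_zero h1
    · have h1 := F.perp_pt.1 hxy.2
      rw [hfe h, if_pos rfl] at h1
      exact F.ε_ne h1
    · exact hxy.1 rfl
  obtain ⟨g, hg, hd⟩ := exists_zi h i hc
  have hgH : g ∈ H := hz i g (hd p hcp)
  have hef1 : F.B (e i) (f i) = 1 := by rw [h.hef, if_pos rfl]
  have h1 := nn_eq_one (sing_e h i) (sing_f h i) hef1 hc hc1 hcc hg (e_ne h i) (f_ne h i)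
  refine ⟨⟨g, hgH⟩, ⟨_, hd p hcp⟩, ?_, ?_⟩
  · rcases hi with rfl | rfl
    · exact h1.1
    · exact h1.2
  · obtain ⟨⟨u, u1, u2, u3, u4, u5⟩, ⟨w, w1, w2, w3, w4, w5⟩⟩ := hu i l hne
    have hu0 : u ≠ 0 := by
      rintro rfl
      rw [F.B_zero_right] at u4
      exact u4 rfl
    have hw0 : w ≠ 0 := by
      rintro rfl
      rw [F.B_zero_right] at w4
      exact w4 rfl
    have fe0 : F.B (f l) (e i) = 0 := by rw [hfe h, if_neg hne.symm]
    have ef0 : F.B (e l) (f i) = 0 := by rw [h.hef, if_neg hne.symm]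
    rcases hl with rfl | rfl
    · refine nn_ne_one (w₁ := F.pt (f l) (f_ne h l) (sing_f h l)) (w₂ := F.pt u hu0 u1)
        (fix_of_perp hg _ _ fe0 (h.hff l i)) (fix_of_perp hg _ _ u2 u3) ?_ ?_ ?_
      · rw [F.perp_pt, h.hef, if_pos rfl]
        exact one_ne_zero
      · rw [F.perp_pt]
        exact u4
      · intro h2
        obtain ⟨t, ht, h3⟩ := F.pt_eq_iff.1 h2.symm
        exact u5 t h3
    · refine nn_ne_one (w₁ := F.pt (e l) (e_ne h l) (sing_e h l)) (w₂ := F.pt w hw0 w1)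
        (fix_of_perp hg _ _ (h.hee l i) ef0) (fix_of_perp hg _ _ w2 w3) ?_ ?_ ?_
      · rw [F.perp_pt, hfe h, if_pos rfl]
        exact F.ε_ne
      · rw [F.perp_pt]
        exact w4
      · intro h2
        obtain ⟨t, ht, h3⟩ := F.pt_eq_iff.1 h2.symm
        exact w5 t h3

/-- the second opposite points, rank at least 3 -/
theorem hu_of_three (h : Frm F F' e f j) (hn : 3 ≤ n) (i l : Fin n) (hil : i ≠ l) :
    (∃ u, F.Sing u ∧ F.B u (e i) = 0 ∧ F.B u (f i) = 0 ∧ F.B (e l) u ≠ 0 ∧ ∀ t : K, u ≠ t • f l) ∧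
      ∃ u, F.Sing u ∧ F.B u (e i) = 0 ∧ F.B u (f i) = 0 ∧ F.B (f l) u ≠ 0 ∧ ∀ t : K, u ≠ t • e l := by
  classical
  obtain ⟨k, hki, hkl⟩ : ∃ k : Fin n, k ≠ i ∧ k ≠ l := by
    obtain ⟨k, hk⟩ := Finset.exists_mem_notMem_of_card_lt_card (s := {i, l}) (t := (Finset.univ : Finset (Fin n))) (by
      rw [Finset.card_univ, Fintype.card_fin]
      exact (Finset.card_le_two).trans_lt (by omega))
    have h1 := hk.2
    rw [Finset.mem_insert, Finset.mem_singleton, not_or] at h1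
    exact ⟨k, h1.1, h1.2⟩
  have ek : F.B (e k) (f k) = 1 := by rw [h.hef, if_pos rfl]
  refine ⟨⟨f l + e k, ⟨?_, ?_⟩, ?_, ?_, ?_, fun t ht => ?_⟩, ⟨e l + e k, ⟨?_, ?_⟩, ?_, ?_, ?_, fun t ht => ?_⟩⟩
  · rw [F.Q_add, h.hQf, h.hQe, hfe h, if_neg hkl.symm, F.T_zero, add_zero, add_zero]
  · rw [F.B_add_left, F.B_add_right, F.B_add_right, h.hff, h.hee, hfe h, h.hef, if_neg hkl.symm, if_neg hkl]
    ring
  · rw [F.B_add_left, h.hee, hfe h, if_neg hil.symm, add_zero]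
  · rw [F.B_add_left, h.hff, h.hef, if_neg hki, add_zero]
  · rw [F.B_add_right, h.hef, if_pos rfl, h.hee, add_zero]
    exact one_ne_zero
  · have h1 := congrArg (fun v => F.B v (f k)) ht
    simp only [F.B_add_left, F.B_smul_left, h.hff, ek, mul_zero, zero_add] at h1
    exact one_ne_zero h1
  · rw [F.Q_add, h.hQe, h.hQe, h.hee, F.T_zero, add_zero, add_zero]
  · rw [F.B_add_left, F.B_add_right, F.B_add_right, h.hee, h.hee, h.hee, h.hee]
    ring
  · rw [F.B_add_left, h.hee, h.hee, add_zero]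
  · rw [F.B_add_left, h.hef, h.hef, if_neg hil.symm, if_neg hki, add_zero]
  · rw [F.B_add_right, hfe h, hfe h, if_pos rfl, if_neg hkl.symm, add_zero]
    exact F.ε_ne
  · have h1 := congrArg (fun v => F.B v (f k)) ht
    have h2 : F.B (e l) (f k) = 0 := by rw [h.hef, if_neg hkl.symm]
    simp only [F.B_add_left, F.B_smul_left, ek, h2, mul_zero, zero_add] at h1
    exact one_ne_zero h1

/-- the second opposite points, rank 2 -/
theorem hu_of_two (h : Frm F F' e f j) {d : K} (hd : d ≠ 0) (hd1 : F.T (F.ε * F.σ d) = 0) (hd2 : d + F.ε * F.σ d = 0)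
    (i l : Fin n) (hil : i ≠ l) :
    (∃ u, F.Sing u ∧ F.B u (e i) = 0 ∧ F.B u (f i) = 0 ∧ F.B (e l) u ≠ 0 ∧ ∀ t : K, u ≠ t • f l) ∧
      ∃ u, F.Sing u ∧ F.B u (e i) = 0 ∧ F.B u (f i) = 0 ∧ F.B (f l) u ≠ 0 ∧ ∀ t : K, u ≠ t • e l := by
  have hef1 : F.B (e l) (f l) = 1 := by rw [h.hef, if_pos rfl]
  have hfe1 : F.B (f l) (e l) = F.ε := by rw [hfe h, if_pos rfl]
  have s1 : F.Sing (f l + d • e l) := by
    refine ⟨?_, ?_⟩
    · rw [F.Q_add, F.Q_smul, h.hQf, h.hQe, F.B_smul_right, hfe1, mul_comm (F.σ d), hd1]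
      ring
    · rw [F.B_add_left, F.B_add_right, F.B_add_right, F.B_smul_left, F.B_smul_right, F.B_smul_left, F.B_smul_right,
        h.hff, h.hee, hef1, hfe1]
      linear_combination hd2
  have s2 : F.B (f l + d • e l) (e i) = 0 := by
    rw [F.B_add_left, F.B_smul_left, h.hee, hfe h, if_neg hil.symm, mul_zero, add_zero]
  have s3 : F.B (f l + d • e l) (f i) = 0 := by
    rw [F.B_add_left, F.B_smul_left, h.hff, h.hef, if_neg hil.symm, mul_zero, add_zero]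
  refine ⟨⟨_, s1, s2, s3, ?_, fun t ht => ?_⟩, ⟨_, s1, s2, s3, ?_, fun t ht => ?_⟩⟩
  · rw [F.B_add_right, F.B_smul_right, h.hee, hef1, mul_zero, add_zero]
    exact one_ne_zero
  · have h1 := congrArg (fun v => F.B v (f l)) ht
    simp only [F.B_add_left, F.B_smul_left, h.hff, hef1, mul_zero, mul_one, zero_add] at h1
    exact hd h1
  · rw [F.B_add_right, F.B_smul_right, h.hff, hfe1, zero_add]
    exact mul_ne_zero ((map_ne_zero F.σ).2 hd) F.ε_ne
  · have h1 := congrArg (fun v => F.B v (e l)) ht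
    simp only [F.B_add_left, F.B_smul_left, h.hee, hfe1, mul_zero, add_zero] at h1
    exact F.ε_ne h1

end frame

end Cfsg.Agent.H530.CY
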